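import Cfsg.Agent.Lib.H3.Brauer
import Cfsg.Agent.Lib.H3.Galois
import Cfsg.Agent.Lib.H3.Central

/-!
# Independence of blocks from the maximal ideal
-/

set_option autoImplicit false

open scoped ComplexConjugate
open Polynomial

namespace Cfsg.Agent.H3

open Cfsg Cfsg.Agent

theorem memLocalIdeal_of_mem_idealSet {M : Ideal AlgInt} [hM : M.IsPrime] {z : ℂ}
    (hz : z ∈ idealSet M) : MemLocalIdeal M z := by
  obtain ⟨a, ha, rfl⟩ := hz
  exact ⟨a, 1, ha, fun h => hM.ne_top ((Ideal.eq_top_iff_one M).mpr h), by simp⟩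

theorem mem_idealSet_of_memLocalIdeal {M : Ideal AlgInt} [hM : M.IsPrime] {z : ℂ}
    (hint : IsIntegral ℤ z) (hz : MemLocalIdeal M z) : z ∈ idealSet M := by
  obtain ⟨a, b, ha, hb, hab⟩ := hz
  have hb0 : (b : ℂ) ≠ 0 := fun h => hb (by rw [show b = 0 from Subtype.ext h]; exact M.zero_mem)
  have h1 : (⟨z, hint⟩ : AlgInt) * b = a := Subtype.ext (by
    change z * b = a
    rw [← hab]; field_simp)
  exact ⟨_, (hM.mem_or_mem (h1 ▸ ha)).resolve_right hb, rfl⟩

theorem intCast_mem_iff_dvd {p : ℕ} (hp : p.Prime) {M : Ideal AlgInt} [hM : M.IsPrime]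
    (hpM : (p : AlgInt) ∈ M) (z : ℤ) : (z : AlgInt) ∈ M ↔ (p : ℤ) ∣ z := by
  have : CharP (AlgInt ⧸ M) p := (CharP.charP_iff_prime_eq_zero hp).mpr (by
    rw [← map_natCast (Ideal.Quotient.mk M), Ideal.Quotient.eq_zero_iff_mem]; exact hpM)
  rw [← Ideal.Quotient.eq_zero_iff_mem, map_intCast, CharP.intCast_eq_zero_iff _ p]

/-- An algebraic integer all of whose conjugates lie in a prime over `p` lies in every prime
over `p`. -/
theorem mem_of_forall_conj_mem {p : ℕ} (hp : p.Prime) {M M' : Ideal AlgInt} [hM : M.IsPrime]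
    [hM' : M'.IsPrime] (hpM : (p : AlgInt) ∈ M) (hpM' : (p : AlgInt) ∈ M') (α : AlgInt)
    (h : ∀ σ : ℂ ≃+* ℂ, σ α ∈ idealSet M) : α ∈ M' := by
  classical
  have hint : IsIntegral ℤ (α : ℂ) := α.2
  let f : ℤ[X] := minpoly ℤ (α : ℂ)
  have hf : f.Monic := minpoly.monic hint
  have hfq : minpoly ℚ (α : ℂ) = f.map (algebraMap ℤ ℚ) :=
    minpoly.isIntegrallyClosed_eq_field_fractions' ℚ hint
  let g : ℂ[X] := f.map (algebraMap ℤ ℂ)
  have hg : g = (g.roots.map fun r => X - C r).prod :=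
    (IsAlgClosed.splits g).eq_prod_roots_of_monic (hf.map _)
  have hr : ∀ r ∈ g.roots, ∃ a ∈ M, (a : ℂ) = r := fun r hr => by
    have h1 : aeval r (minpoly ℚ (α : ℂ)) = 0 := by
      rw [hfq, aeval_map_algebraMap, aeval_def, ← eval_map]
      exact (mem_roots (hf.map _).ne_zero).mp hr
    have h2 := minpoly.eq_of_irreducible_of_monic (minpoly.irreducible hint.tower_top) h1
      (minpoly.monic hint.tower_top)
    obtain ⟨σ, hσ⟩ := exists_ringEquiv_of_minpoly_eq hint.tower_top h2
    exact hσ ▸ h σ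
  choose! a ha1 ha2 using hr
  have h3 : f.map (algebraMap ℤ AlgInt) = (g.roots.map fun r => X - C (a r)).prod := by
    apply map_injective (algebraMap AlgInt ℂ) Subtype.val_injective
    rw [map_map, Polynomial.map_multiset_prod, Multiset.map_map]
    refine hg.trans ?_
    congr 1
    refine Multiset.map_congr rfl fun r hr => ?_
    simp [ha2 r hr]
  have h4 : f.map (algebraMap ℤ (AlgInt ⧸ M)) = X ^ g.roots.card := by
    have := congrArg (Polynomial.map (Ideal.Quotient.mk M)) h3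
    rw [map_map, Polynomial.map_multiset_prod, Multiset.map_map, Multiset.map_congr rfl
      (g := fun _ => X) fun r hr => by simp [Ideal.Quotient.eq_zero_iff_mem.mpr (ha1 r hr)]] at this
    rw [RingHom.ext_int (algebraMap ℤ (AlgInt ⧸ M))
      ((Ideal.Quotient.mk M).comp (algebraMap ℤ AlgInt)), this]
    simp
  have h5 : f.map (algebraMap ℤ (AlgInt ⧸ M')) = X ^ g.roots.card := by
    have h6 : ∀ i, (p : ℤ) ∣ (f - X ^ g.roots.card).coeff i := fun i => by
      rw [← intCast_mem_iff_dvd hp hpM, ← Ideal.Quotient.eq_zero_iff_mem, map_intCast,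
        ← eq_intCast (algebraMap ℤ (AlgInt ⧸ M)), ← coeff_map, Polynomial.map_sub, h4]
      simp
    rw [← sub_eq_zero]
    ext i
    have h7 := h6 i
    rw [← intCast_mem_iff_dvd hp hpM', ← Ideal.Quotient.eq_zero_iff_mem, map_intCast,
        ← eq_intCast (algebraMap ℤ (AlgInt ⧸ M')), ← coeff_map, Polynomial.map_sub] at h7
    simpa using h7
  have h8 : aeval α f = 0 := by
    apply Subtype.val_injective
    have := minpoly.aeval ℤ (α : ℂ)
    exact (aeval_algebraMap_apply ℂ α f).symm.trans this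
  have h9 : aeval (Ideal.Quotient.mk M' α) f = 0 := by
    have := aeval_algHom_apply (Ideal.Quotient.mkₐ ℤ M') α f
    rw [h8, map_zero] at this
    exact this
  rw [aeval_def, ← eval_map, h5, eval_pow, eval_X] at h9
  exact Ideal.Quotient.eq_zero_iff_mem.mp (eq_zero_of_pow_eq_zero h9)

variable {G : Type*} [Group G] [Finite G]

theorem centralizer_pow_of_coprime (g : G) {m : ℕ} (hm : m.Coprime (orderOf g)) :
    Subgroup.centralizer ({g ^ m} : Set G) = Subgroup.centralizer {g} := by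
  ext x
  rw [Subgroup.mem_centralizer_singleton_iff, Subgroup.mem_centralizer_singleton_iff]
  constructor
  · intro h
    obtain ⟨k, hk⟩ := exists_pow_eq_self_of_coprime hm
    rw [← hk]
    exact (Commute.pow_right h k).eq
  · intro h
    exact (Commute.pow_right h m).eq

theorem map_centralChar {σ : ℂ →+* ℂ} {m : ℕ} (hm : m.Coprime (Nat.card G))
    (hσ : ∀ a : G → ℂ, IsGeneralizedCharacter G a → ∀ g, σ (a g) = a (g ^ m)) {χ : G → ℂ}
    (hχ : IsGeneralizedCharacter G χ) (g : G) :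
    σ (centralChar χ g) = centralChar χ (g ^ m) := by
  rw [centralChar, centralChar, map_div₀, map_mul, map_natCast, hσ χ hχ, hσ χ hχ, one_pow,
    centralizer_pow_of_coprime g (hm.coprime_dvd_right (orderOf_dvd_natCard g))]

theorem centralChar_sub_mem_of_sameBlock {p : ℕ} {M M' : Ideal AlgInt} (hM : IsPModular p M)
    (hM' : IsPModular p M') {χ ψ : G → ℂ} (hχ : IsIrrCharacter G χ) (hψ : IsIrrCharacter G ψ)
    (h : SameBlock M χ ψ) (g : G) : centralChar χ g - centralChar ψ g ∈ idealSet M' := by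
  have := hM.2.1.isPrime
  have := hM'.2.1.isPrime
  have hint : ∀ g, IsIntegral ℤ (centralChar χ g - centralChar ψ g) := fun g =>
    (centralChar_isIntegral hχ g).sub (centralChar_isIntegral hψ g)
  refine ⟨⟨_, hint g⟩, mem_of_forall_conj_mem hM.1 hM.2.2 hM'.2.2 _ fun σ => ?_, rfl⟩
  obtain ⟨m, hm, hσ⟩ := ringHom_exists_char_pow (G := G) σ.toRingHom
  have h1 := map_centralChar hm hσ (IsIrrCharacter_isGeneralized hχ) g
  have h2 := map_centralChar hm hσ (IsIrrCharacter_isGeneralized hψ) g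
  have h3 : σ (centralChar χ g - centralChar ψ g) =
      centralChar χ (g ^ m) - centralChar ψ (g ^ m) := by
    rw [map_sub, ← h1, ← h2]; rfl
  exact h3 ▸ mem_idealSet_of_memLocalIdeal (hint _) (h _)

theorem sameBlock_of_sameBlock {p : ℕ} {M M' : Ideal AlgInt} (hM : IsPModular p M)
    (hM' : IsPModular p M') {χ ψ : G → ℂ} (hχ : IsIrrCharacter G χ) (hψ : IsIrrCharacter G ψ)
    (h : SameBlock M χ ψ) : SameBlock M' χ ψ := fun g =>
  have := hM'.2.1.isPrime
  memLocalIdeal_of_mem_idealSet (centralChar_sub_mem_of_sameBlock hM hM' hχ hψ h g)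

end Cfsg.Agent.H3
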